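import Mathlib

/-!
# Two lemmas for the case `|V| = 81` of the `k(GV)` problem

* `commutator_le_center`, `sq_mem_center` : a nilpotent group all of whose commutative
  characteristic subgroups have order dividing two has class at most two and its squares are
  central;
* `card_conjClasses_le` : a group of order 160 with a normal subgroup of order 32 on which the
  elements of order five act with few fixed points has at most sixteen classes.
-/

set_option autoImplicit false
set_option linter.style.haveILetI false

namespace Cfsg.Agent.H718.ExtraTwo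

open scoped commutatorElement

section Char

variable {Q : Type*} [Group Q]

theorem le_center_of_card_dvd_two {A : Subgroup Q} [A.Normal] (h : Nat.card A ∣ 2) :
    A ≤ Subgroup.center Q := by
  intro a ha
  rw [Subgroup.mem_center_iff]
  intro g
  by_cases h1 : a = 1
  · rw [h1, mul_one, one_mul]
  have hA2 : Nat.card A = 2 := by
    rcases (Nat.dvd_prime Nat.prime_two).1 h with h2 | h2
    · exfalso
      rw [Subgroup.card_eq_one] at h2
      rw [h2] at ha
      exact h1 (Subgroup.mem_bot.1 ha)
    · exact h2
  have h3 : g * a * g⁻¹ ∈ A := Subgroup.Normal.conj_mem inferInstance a ha g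
  have h4 : g * a * g⁻¹ ≠ 1 := by
    intro h5
    apply h1
    have : g * a * g⁻¹ = g * 1 * g⁻¹ := by rw [h5]; group
    exact mul_left_cancel (mul_right_cancel this)
  obtain ⟨x, y, hxy, hun⟩ := Nat.card_eq_two_iff.1 hA2
  have key : ∀ b c : A, b ≠ 1 → c ≠ 1 → b = c := by
    intro b c hb hc
    have m1 : ∀ t : A, t = x ∨ t = y := by
      intro t
      have : t ∈ ({x, y} : Set A) := by rw [hun]; trivial
      simpa using this
    rcases m1 1 with h6 | h6 <;> rcases m1 b with h7 | h7 <;> rcases m1 c with h8 | h8
    · exact absurd (h7.trans h6.symm) hb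
    · exact absurd (h7.trans h6.symm) hb
    · exact absurd (h8.trans h6.symm) hc
    · rw [h7, h8]
    · rw [h7, h8]
    · exact absurd (h8.trans h6.symm) hc
    · exact absurd (h7.trans h6.symm) hb
    · exact absurd (h7.trans h6.symm) hb
  have h9 := key ⟨g * a * g⁻¹, h3⟩ ⟨a, ha⟩ (fun h => h4 (congrArg Subtype.val h))
    (fun h => h1 (congrArg Subtype.val h))
  have h10 : g * a * g⁻¹ = a := congrArg Subtype.val h9
  calc g * a = (g * a * g⁻¹) * g := by group
    _ = a * g := by rw [h10]

theorem commutator_le_center [Group.IsNilpotent Q]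
    (hch : ∀ A : Subgroup Q, A.Characteristic → (∀ a ∈ A, ∀ b ∈ A, a * b = b * a) →
      Nat.card A ∣ 2) :
    _root_.commutator Q ≤ Subgroup.center Q := by
  -- the intersection of the commutator subgroup and the second center
  have h3s : ⁅⁅(⊤ : Subgroup Q), (⊤ : Subgroup Q)⁆, Subgroup.upperCentralSeries Q 2⁆ = ⊥ := by
    have h1 : ⁅Subgroup.upperCentralSeries Q 2, (⊤ : Subgroup Q)⁆ ≤ Subgroup.center Q := by
      have := Subgroup.commutator_upperCentralSeries_top_le Q 1
      rwa [Subgroup.upperCentralSeries_one] at this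
    have h2 : ⁅Subgroup.center Q, (⊤ : Subgroup Q)⁆ = ⊥ := by
      rw [Subgroup.commutator_eq_bot_iff_le_centralizer]
      intro a ha
      rw [Subgroup.mem_centralizer_iff]
      intro b _
      exact Subgroup.mem_center_iff.1 ha b
    apply Subgroup.commutator_commutator_eq_bot_of_rotate
    · rw [Subgroup.commutator_comm ⊤ (Subgroup.upperCentralSeries Q 2)]
      exact le_bot_iff.1 ((Subgroup.commutator_mono h1 le_rfl).trans h2.le)
    · exact le_bot_iff.1 ((Subgroup.commutator_mono h1 le_rfl).trans h2.le)
  let A : Subgroup Q := _root_.commutator Q ⊓ Subgroup.upperCentralSeries Q 2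
  have hAchar : A.Characteristic := by
    rw [Subgroup.characteristic_iff_comap_eq]
    intro φ
    change (_root_.commutator Q ⊓ Subgroup.upperCentralSeries Q 2).comap φ.toMonoidHom = _
    rw [Subgroup.comap_inf,
      Subgroup.characteristic_iff_comap_eq.1 (inferInstance : (_root_.commutator Q).Characteristic) φ,
      Subgroup.characteristic_iff_comap_eq.1
        (inferInstance : (Subgroup.upperCentralSeries Q 2).Characteristic) φ]
  have hAc : ∀ a ∈ A, ∀ b ∈ A, a * b = b * a := by
    intro a ha b hb
    rw [Subgroup.commutator_eq_bot_iff_le_centralizer] at h3s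
    have := h3s ha.1
    rw [Subgroup.mem_centralizer_iff] at this
    exact (this b hb.2).symm
  have hA2 := hch A hAchar hAc
  haveI := hAchar
  haveI : A.Normal := inferInstance
  have hAZ : A ≤ Subgroup.center Q := le_center_of_card_dvd_two hA2
  obtain ⟨n, hn⟩ := Subgroup.nilpotent_iff_lowerCentralSeries.1 (inferInstance : Group.IsNilpotent Q)
  have key : ∀ m k : ℕ, 1 ≤ k → n ≤ k + m →
      (⊤ : Subgroup Q).lowerCentralSeries k ≤ Subgroup.center Q := by
    intro m
    induction m with
    | zero =>
      intro k _ hk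
      have h1 : (⊤ : Subgroup Q).lowerCentralSeries k ≤ (⊤ : Subgroup Q).lowerCentralSeries n :=
        Subgroup.lowerCentralSeries_antitone _ (by omega)
      rw [hn] at h1
      exact h1.trans bot_le
    | succ m ih =>
      intro k hk1 hk
      have h1 := ih (k + 1) (by omega) (by omega)
      refine le_trans ?_ hAZ
      refine le_inf ?_ ?_
      · have h2 : (⊤ : Subgroup Q).lowerCentralSeries k ≤ (⊤ : Subgroup Q).lowerCentralSeries 1 :=
          Subgroup.lowerCentralSeries_antitone _ hk1
        rwa [Subgroup.top_lowerCentralSeries_one] at h2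
      · intro x hx
        rw [Subgroup.mem_upperCentralSeries_succ_iff]
        intro y
        rw [Subgroup.upperCentralSeries_one]
        apply h1
        rw [Subgroup.lowerCentralSeries_succ]
        exact Subgroup.commutator_mem_commutator hx (Subgroup.mem_top y)
  have := key n 1 le_rfl (by omega)
  rwa [Subgroup.top_lowerCentralSeries_one] at this

/-- In a group of class two with center of exponent two, squares are central. -/
theorem sq_mem_center (hQ : _root_.commutator Q ≤ Subgroup.center Q)
    (hZ : ∀ z ∈ Subgroup.center Q, z ^ 2 = 1) (x : Q) : x ^ 2 ∈ Subgroup.center Q := by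
  rw [Subgroup.mem_center_iff]
  intro y
  have h1 : ⁅y, x⁆ ∈ Subgroup.center Q :=
    hQ (Subgroup.commutator_mem_commutator (Subgroup.mem_top y) (Subgroup.mem_top x))
  have h2 : ⁅y, x⁆ ^ 2 = 1 := hZ _ h1
  have h3 : y * x = ⁅y, x⁆ * (x * y) := by rw [commutatorElement_def]; group
  rw [Subgroup.mem_center_iff] at h1
  calc y * x ^ 2 = (y * x) * x := by rw [sq, mul_assoc]
    _ = ⁅y, x⁆ * (x * y) * x := by rw [h3]
    _ = ⁅y, x⁆ * x * (y * x) := by group
    _ = ⁅y, x⁆ * x * (⁅y, x⁆ * (x * y)) := by rw [← h3]
    _ = ⁅y, x⁆ * (x * ⁅y, x⁆) * (x * y) := by simp only [mul_assoc]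
    _ = ⁅y, x⁆ * (⁅y, x⁆ * x) * (x * y) := by rw [h1 x]
    _ = ⁅y, x⁆ ^ 2 * (x ^ 2 * y) := by simp only [sq, mul_assoc]
    _ = x ^ 2 * y := by rw [h2, one_mul]

end Char

section Count

open Classical in
/-- A group of order 160 with a normal subgroup of order 32 on which the elements of order five
have at most two fixed points has at most sixteen classes. -/
theorem card_conjClasses_le {N : Type*} [Group N] [Finite N] (Q : Subgroup N) [Q.Normal]
    (hQ : Nat.card Q = 32) (hN : Nat.card N = 160)
    (h5 : ∀ x : N, orderOf x = 5 → Nat.card {q : Q // Commute (q : N) x} ≤ 2) :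
    Nat.card (ConjClasses N) ≤ 16 := by
  haveI := Fintype.ofFinite N
  have hq : ∀ x : N, x ∉ Q → Nat.card {q : Q // Commute (q : N) x} ≤ 2 := by
    intro x hx
    have hidx : Nat.card (N ⧸ Q) = 5 := by
      have := Q.card_mul_index
      rw [hQ, hN, Subgroup.index_eq_card] at this
      omega
    have h1 : orderOf (x : N ⧸ Q) = 5 := by
      have h2 : orderOf (x : N ⧸ Q) ∣ 5 := hidx ▸ orderOf_dvd_natCard _
      rcases (Nat.dvd_prime (by norm_num)).1 h2 with h3 | h3
      · exact absurd ((QuotientGroup.eq_one_iff x).1 (orderOf_eq_one_iff.1 h3)) hx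
      · exact h3
    have h2 : 5 ∣ orderOf x := h1 ▸ orderOf_map_dvd (QuotientGroup.mk' Q) x
    have h3 : orderOf (x ^ (orderOf x / 5)) = 5 := by
      rw [orderOf_pow_of_dvd, Nat.div_div_self h2 (orderOf_pos x).ne']
      · obtain ⟨t, ht⟩ := h2
        have := orderOf_pos x
        intro h0
        omega
      · exact Nat.div_dvd_of_dvd h2
    refine le_trans ?_ (h5 _ h3)
    refine Nat.card_le_card_of_injective
      (fun q : {q : Q // Commute (q : N) x} => (⟨q.1, q.2.pow_right _⟩ :
        {q : Q // Commute (q : N) (x ^ (orderOf x / 5))})) ?_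
    intro a b hab
    exact Subtype.ext (congrArg (fun t => t.1) hab)
  have hc : ∀ x : N, x ∉ Q → Nat.card (Subgroup.centralizer ({x} : Set N)) ≤ 10 := by
    intro x hx
    set C := Subgroup.centralizer ({x} : Set N) with hC
    have h1 := (Q.subgroupOf C).card_mul_index
    have h2 : (Q.subgroupOf C).index ∣ 5 := by
      have h3 : Q.relIndex C ∣ Q.index := Subgroup.relIndex_dvd_index_of_normal Q C
      have h4 : Q.index = 5 := by
        have := Q.card_mul_index
        rw [hQ, hN] at this
        omega
      rwa [h4] at h3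
    have h3 : Nat.card (Q.subgroupOf C) ≤ 2 := by
      refine le_trans ?_ (hq x hx)
      refine Nat.card_le_card_of_injective
        (fun q : Q.subgroupOf C => (⟨⟨((q : C) : N), q.2⟩, ?_⟩ : {q : Q // Commute (q : N) x})) ?_
      · have h5 := (q : C).2
        exact (Subgroup.mem_centralizer_singleton_iff.1 h5)
      · intro a b hab
        apply Subtype.ext
        apply Subtype.ext
        exact congrArg (fun t : {q : Q // Commute (q : N) x} => ((t : Q) : N)) hab
    rw [← h1]
    calc _ ≤ 2 * 5 := Nat.mul_le_mul h3 (Nat.le_of_dvd (by norm_num) h2)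
      _ = 10 := by norm_num
  have hcardQ : (Finset.univ.filter (fun a : N => a ∈ Q)).card = 32 := by
    rw [← hQ, Nat.card_eq_fintype_card, Fintype.card_subtype]
  have hcardQ' : (Finset.univ.filter (fun a : N => a ∉ Q)).card = 128 := by
    have h1 := Finset.card_filter_add_card_filter_not (s := (Finset.univ : Finset N)) (fun a : N => a ∈ Q)
    rw [hcardQ, Finset.card_univ, ← Nat.card_eq_fintype_card, hN] at h1
    omega
  have htot : Nat.card (ConjClasses N) * 160 = ∑ a : N, ∑ b : N, (if Commute a b then 1 else 0) := by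
    rw [← hN, ← card_comm_eq_card_conjClasses_mul_card, Nat.card_eq_fintype_card,
      Fintype.card_subtype, Finset.card_filter, Fintype.sum_prod_type]
  have hA : ∑ a ∈ Finset.univ.filter (fun a : N => a ∈ Q), ∑ b ∈ Finset.univ.filter (fun a : N => a ∈ Q),
      (if Commute a b then 1 else 0) ≤ 32 * 32 := by
    calc _ ≤ ∑ a ∈ Finset.univ.filter (fun a : N => a ∈ Q),
          ∑ b ∈ Finset.univ.filter (fun a : N => a ∈ Q), 1 := by
          refine Finset.sum_le_sum fun a _ => Finset.sum_le_sum fun b _ => ?_
          split_ifs <;> simp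
      _ = 32 * 32 := by simp [hcardQ]
  have hB : ∑ a ∈ Finset.univ.filter (fun a : N => a ∈ Q), ∑ b ∈ Finset.univ.filter (fun a : N => a ∉ Q),
      (if Commute a b then 1 else 0) ≤ 128 * 2 := by
    rw [Finset.sum_comm]
    have h1 : ∀ b ∈ Finset.univ.filter (fun a : N => a ∉ Q),
        ∑ a ∈ Finset.univ.filter (fun a : N => a ∈ Q), (if Commute a b then 1 else 0) ≤ 2 := by
      intro b hb
      refine le_trans (le_of_eq ?_) (hq b (Finset.mem_filter.1 hb).2)
      rw [← Finset.card_filter, Finset.filter_filter, Nat.card_eq_fintype_card]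
      rw [← Fintype.card_subtype]
      refine Fintype.card_congr
        { toFun := fun t => ⟨⟨t.1, t.2.1⟩, t.2.2⟩
          invFun := fun t => ⟨t.1.1, t.1.2, t.2⟩
          left_inv := fun t => rfl
          right_inv := fun t => rfl }
    refine (Finset.sum_le_sum h1).trans (le_of_eq ?_)
    simp [hcardQ']
  have hC : ∑ a ∈ Finset.univ.filter (fun a : N => a ∉ Q), ∑ b : N,
      (if Commute a b then 1 else 0) ≤ 128 * 10 := by
    have h1 : ∀ a ∈ Finset.univ.filter (fun a : N => a ∉ Q),
        ∑ b : N, (if Commute a b then 1 else 0) ≤ 10 := by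
      intro a ha
      refine le_trans (le_of_eq ?_) (hc a (Finset.mem_filter.1 ha).2)
      rw [← Finset.card_filter, ← Fintype.card_subtype, Nat.card_eq_fintype_card]
      refine Fintype.card_congr
        { toFun := fun t => ⟨t.1, Subgroup.mem_centralizer_singleton_iff.2 t.2.symm⟩
          invFun := fun t => ⟨t.1, Commute.symm (Subgroup.mem_centralizer_singleton_iff.1 t.2)⟩
          left_inv := fun t => rfl
          right_inv := fun t => rfl }
    refine (Finset.sum_le_sum h1).trans (le_of_eq ?_)
    simp [hcardQ']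
  have hsum : ∑ a : N, ∑ b : N, (if Commute a b then 1 else 0) ≤ 32 * 32 + 128 * 2 + 128 * 10 := by
    rw [← Finset.sum_filter_add_sum_filter_not Finset.univ (fun a : N => a ∈ Q)]
    refine Nat.add_le_add ?_ hC
    have h1 : ∑ a ∈ Finset.univ.filter (fun a : N => a ∈ Q), ∑ b : N, (if Commute a b then 1 else 0) =
        ∑ a ∈ Finset.univ.filter (fun a : N => a ∈ Q), ∑ b ∈ Finset.univ.filter (fun a : N => a ∈ Q),
          (if Commute a b then 1 else 0) +
        ∑ a ∈ Finset.univ.filter (fun a : N => a ∈ Q), ∑ b ∈ Finset.univ.filter (fun a : N => a ∉ Q),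
          (if Commute a b then 1 else 0) := by
      rw [← Finset.sum_add_distrib]
      refine Finset.sum_congr rfl fun a _ => ?_
      rw [Finset.sum_filter_add_sum_filter_not]
    rw [h1]
    exact Nat.add_le_add hA hB
  omega

end Count

end Cfsg.Agent.H718.ExtraTwo
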