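import Mathlib
import Cfsg.Agent.H718.ExtraTwo
import Cfsg.Agent.H717.FieldP
import Cfsg.Agent.H717.Rep
import Cfsg.Agent.H540.ClassNum
import Cfsg.Agent.S0144
import Cfsg.Agent.Classification.LocalCore
import Cfsg.Agent.Lib.Cores

/-!
# The class number of a coprime transitive linear group on 81 vectors

`eightyone` : the remaining (extraspecial) case `|V| = 81` of the `k(GV)` problem for transitive
coprime groups.
-/

set_option autoImplicit false
set_option linter.style.haveILetI false
set_option linter.unusedSectionVars false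

namespace Cfsg.Agent.H718.EightyOne

open Cfsg
open scoped commutatorElement

universe u v

section Indep

theorem one_ne_neg : (1 : ZMod 3) ≠ -1 := by decide

/-- A group of endomorphisms with commutators `± 1` has at most `16` elements modulo its center, in
dimension four. -/
theorem card_quotient_center_le {Q : Type*} [Group Q] [Finite Q] {E : Type*} [AddCommGroup E] [Finite E]
    [Nontrivial E] [DistribMulAction Q E] (h3 : ∀ e : E, 3 • e = 0) (hE : Nat.card E = 81)
    (z : Q) (hz : ∀ e : E, z • e = - e) (hzc : z ∈ Subgroup.center Q)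
    (hcom : ∀ x y : Q, ⁅x, y⁆ = 1 ∨ ⁅x, y⁆ = z) :
    Nat.card (Q ⧸ Subgroup.center Q) ≤ 16 := by
  classical
  haveI : Fact (Nat.Prime 3) := ⟨by norm_num⟩
  letI : Module (ZMod 3) E := AddCommGroup.zmodModule (n := 3) h3
  haveI : Module.Finite (ZMod 3) E := Module.Finite.of_finite
  have hfr : Module.finrank (ZMod 3) E = 4 := by
    have h1 := Module.natCard_eq_pow_finrank (K := ZMod 3) (V := E)
    rw [hE, Nat.card_zmod] at h1
    exact (Nat.pow_right_injective (by norm_num : 2 ≤ 3) (h1.symm.trans (by norm_num : (81:ℕ) = 3 ^ 4)))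
  let ρ : Q →* Module.End (ZMod 3) E :=
    { toFun := fun g => AddMonoidHom.toZModLinearMap 3 (DistribMulAction.toAddMonoidEnd Q E g)
      map_one' := by
        refine LinearMap.ext fun v => ?_
        exact one_smul Q v
      map_mul' := fun g g' => by
        refine LinearMap.ext fun v => ?_
        exact mul_smul g g' v }
  have hρ : ∀ (g : Q) (e : E), ρ g e = g • e := fun _ _ => rfl
  have hρz : ρ z = -1 := by
    refine LinearMap.ext fun v => ?_
    rw [hρ, hz]
    rfl
  have hρ0 : ∀ g : Q, ρ g ≠ 0 := by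
    intro g h0
    obtain ⟨e, he⟩ := exists_ne (0 : E)
    have h1 : ρ g⁻¹ * ρ g = 1 := by rw [← map_mul, inv_mul_cancel, map_one]
    rw [h0, mul_zero] at h1
    have h2 := LinearMap.congr_fun h1 e
    exact he h2.symm
  let s : Q → Q → ZMod 3 := fun t q => if Commute q t then 1 else -1
  have hs : ∀ t q : Q, ρ q * ρ t = s t q • (ρ t * ρ q) := by
    intro t q
    by_cases h : Commute q t
    · have : s t q = 1 := if_pos h
      rw [this, one_smul, ← map_mul, ← map_mul, h.eq]
    · have h1 : s t q = -1 := if_neg h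
      have h2 : ⁅q, t⁆ = z := by
        rcases hcom q t with h3 | h3
        · exact absurd (commutatorElement_eq_one_iff_commute.1 h3) h
        · exact h3
      have h4 : q * t = z * (t * q) := by rw [← h2, commutatorElement_def]; group
      rw [h1, ← map_mul, h4, map_mul, hρz, map_mul, neg_smul, one_smul, neg_mul, one_mul]
  have hinj2 : ∀ (g : Q) (a b : ZMod 3), a • ρ g = b • ρ g → a = b := fun g a b h =>
    smul_left_injective _ (hρ0 g) h
  let χ : Q → (Q →* ZMod 3) := fun t =>
    { toFun := s t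
      map_one' := if_pos (Commute.one_left t)
      map_mul' := fun q q' => by
        apply hinj2 (t * (q * q'))
        rw [map_mul ρ t, ← hs, map_mul, mul_assoc, hs t q', mul_smul_comm, ← mul_assoc, hs t q,
          smul_mul_assoc, mul_assoc, smul_smul, mul_comm (s t q')] }
  have hχ : ∀ t q, χ t q = s t q := fun _ _ => rfl
  have h11 : (1 : ZMod 3) ≠ -1 := one_ne_neg
  have hdist : ∀ t t' : Q, χ t = χ t' → t⁻¹ * t' ∈ Subgroup.center Q := by
    intro t t' h
    rw [Subgroup.mem_center_iff]
    intro q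
    have h1 : s t q = s t' q := DFunLike.congr_fun h q
    have key : ∃ ε : Q, ε ∈ Subgroup.center Q ∧ q * t = ε * (t * q) ∧ q * t' = ε * (t' * q) := by
      by_cases hc : Commute q t
      · have h2 : s t q = 1 := if_pos hc
        have hc' : Commute q t' := by
          by_contra hn
          have h4 : s t' q = -1 := if_neg hn
          rw [h2, h4] at h1
          exact h11 h1
        exact ⟨1, one_mem _, by rw [one_mul]; exact hc, by rw [one_mul]; exact hc'⟩
      · have h2 : s t q = -1 := if_neg hc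
        have hc' : ¬ Commute q t' := by
          intro hn
          have h4 : s t' q = 1 := if_pos hn
          rw [h2, h4] at h1
          exact h11 h1.symm
        have e1 : ⁅q, t⁆ = z := by
          rcases hcom q t with h3 | h3
          · exact absurd (commutatorElement_eq_one_iff_commute.1 h3) hc
          · exact h3
        have e2 : ⁅q, t'⁆ = z := by
          rcases hcom q t' with h3 | h3
          · exact absurd (commutatorElement_eq_one_iff_commute.1 h3) hc'
          · exact h3
        refine ⟨z, hzc, ?_, ?_⟩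
        · rw [← e1, commutatorElement_def]; group
        · rw [← e2, commutatorElement_def]; group
    obtain ⟨ε, hε, k1, k2⟩ := key
    rw [Subgroup.mem_center_iff] at hε
    have k3 : q * t⁻¹ = ε⁻¹ * (t⁻¹ * q) := by
      have e1 : t⁻¹ * q * t = ε * q := by
        calc t⁻¹ * q * t = t⁻¹ * (q * t) := by rw [mul_assoc]
          _ = t⁻¹ * (ε * (t * q)) := by rw [k1]
          _ = (t⁻¹ * ε) * (t * q) := by rw [mul_assoc]
          _ = (ε * t⁻¹) * (t * q) := by rw [hε]
          _ = ε * q := by group
      have e2 : t⁻¹ * q = ε * (q * t⁻¹) := by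
        calc t⁻¹ * q = (t⁻¹ * q * t) * t⁻¹ := by group
          _ = ε * q * t⁻¹ := by rw [e1]
          _ = _ := by rw [mul_assoc]
      rw [e2]; group
    calc q * (t⁻¹ * t') = (q * t⁻¹) * t' := by rw [mul_assoc]
      _ = ε⁻¹ * (t⁻¹ * (q * t')) := by rw [k3]; simp only [mul_assoc]
      _ = ε⁻¹ * (t⁻¹ * ε) * (t' * q) := by rw [k2]; simp only [mul_assoc]
      _ = ε⁻¹ * (ε * t⁻¹) * (t' * q) := by rw [hε]
      _ = t⁻¹ * t' * q := by group
  haveI := Fintype.ofFinite (Q ⧸ Subgroup.center Q)
  have hli : LinearIndependent (ZMod 3) (fun c : Q ⧸ Subgroup.center Q => ρ c.out) := by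
    have hL : LinearIndependent (ZMod 3) (fun c : Q ⧸ Subgroup.center Q => (χ c.out : Q → ZMod 3)) := by
      refine (linearIndependent_monoidHom Q (ZMod 3)).comp (fun c : Q ⧸ Subgroup.center Q => χ c.out) ?_
      intro c d hcd
      have h1 := hdist _ _ hcd
      rw [← QuotientGroup.eq, QuotientGroup.out_eq', QuotientGroup.out_eq'] at h1
      exact h1
    rw [Fintype.linearIndependent_iff] at hL ⊢
    intro a ha c
    -- conjugates of the relation
    have h1 : ∀ q : Q, ∑ c : Q ⧸ Subgroup.center Q, (a c * s c.out q) • ρ c.out = 0 := by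
      intro q
      have h2 : ρ q * (∑ c : Q ⧸ Subgroup.center Q, a c • ρ c.out) =
          (∑ c : Q ⧸ Subgroup.center Q, (a c * s c.out q) • ρ c.out) * ρ q := by
        rw [Finset.mul_sum, Finset.sum_mul]
        refine Finset.sum_congr rfl fun c _ => ?_
        rw [mul_smul_comm, hs, smul_smul, smul_mul_assoc]
      rw [ha, mul_zero] at h2
      have h4 : ρ q * ρ q⁻¹ = 1 := by rw [← map_mul, mul_inv_cancel, map_one]
      calc _ = (∑ c : Q ⧸ Subgroup.center Q, (a c * s c.out q) • ρ c.out) * (ρ q * ρ q⁻¹) := by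
            rw [h4, mul_one]
        _ = 0 := by rw [← mul_assoc, ← h2, zero_mul]
    have h2 : ∀ φ : Module.Dual (ZMod 3) (Module.End (ZMod 3) E), a c * φ (ρ c.out) = 0 := by
      intro φ
      refine hL (fun c => a c * φ (ρ c.out)) ?_ c
      funext q
      have h4 := congrArg φ (h1 q)
      rw [map_sum, map_zero] at h4
      rw [Finset.sum_apply, Pi.zero_apply, ← h4]
      refine Finset.sum_congr rfl fun c _ => ?_
      rw [Pi.smul_apply, map_smul, smul_eq_mul, smul_eq_mul, hχ]
      ring
    by_contra hne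
    apply hρ0 c.out
    rw [← Module.forall_dual_apply_eq_zero_iff (ZMod 3)]
    intro φ
    exact (mul_eq_zero.1 (h2 φ)).resolve_left hne
  have h := hli.fintype_card_le_finrank
  rw [Module.finrank_linearMap, hfr, ← Nat.card_eq_fintype_card] at h
  exact h

end Indep

/-- A central involution of a transitive linear group acts as `-1`. -/
theorem smul_eq_neg {D : Type v} {E : Type u} [Group D] [AddCommGroup E]
    [DistribMulAction D E] [FaithfulSMul D E]
    (htr : ∀ x y : E, x ≠ 0 → y ≠ 0 → ∃ d : D, d • x = y) {z : D} (hz : z ∈ Subgroup.center D)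
    (hz2 : z * z = 1) (hz1 : z ≠ 1) (e : E) : z • e = - e := by
  rw [Subgroup.mem_center_iff] at hz
  have key : ∀ e₀ : E, e₀ + z • e₀ = 0 := by
    intro e₀
    by_contra hne
    apply hz1
    apply FaithfulSMul.eq_of_smul_eq_smul (α := E)
    intro x
    by_cases hx : x = 0
    · rw [hx, smul_zero, smul_zero]
    obtain ⟨d, hd⟩ := htr _ x hne hx
    have h1 : z • (e₀ + z • e₀) = e₀ + z • e₀ := by
      rw [smul_add, smul_smul, hz2, one_smul, add_comm]
    rw [one_smul, ← hd, smul_smul, ← hz d, mul_smul, h1]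
  exact (neg_eq_of_add_eq_zero_right (key e)).symm

theorem exists_normal_five {B : Type*} [Group B] [Finite B] [Group.IsSolvable B] {a : ℕ}
    (hB : Nat.card B = 2 ^ a * 5) (h2 : pCore 2 B = ⊥) :
    ∃ P : Subgroup B, P.Normal ∧ Nat.card P = 5 ∧ P.index ∣ 4 := by
  haveI : Fact (Nat.Prime 5) := ⟨by norm_num⟩
  haveI : Fact (Nat.Prime 2) := ⟨Nat.prime_two⟩
  have h1 : pPrimeCore 5 B = ⊥ := by
    rw [← le_bot_iff, ← h2]
    refine Lib.Cores.le_pCore (Lib.Cores.pPrimeCore_normal 5) ?_
    have h3 := Lib.Cores.pPrimeCore_coprime (G := B) 5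
    have h4 : Nat.card (pPrimeCore 5 B) ∣ 2 ^ a * 5 := hB ▸ Subgroup.card_subgroup_dvd_card _
    obtain ⟨k, -, hk⟩ := (Nat.dvd_prime_pow Nat.prime_two).1 (h3.dvd_of_dvd_mul_right h4)
    exact IsPGroup.of_card hk
  have h3 := Classification.LocalCore.centralizer_pCore_le 5 h1
  haveI := Lib.Cores.pCore_normal (G := B) 5
  have hP5 : Nat.card (pCore 5 B) = 5 := by
    obtain ⟨k, hk⟩ := IsPGroup.iff_card.1 (Lib.Cores.pCore_isPGroup (G := B) 5)
    have h4 : Nat.card (pCore 5 B) ∣ 2 ^ a * 5 := hB ▸ Subgroup.card_subgroup_dvd_card _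
    rw [hk] at h4 ⊢
    have h5 : (5 ^ k).Coprime (2 ^ a) := Nat.Coprime.pow _ _ (by norm_num)
    have h6 : 5 ^ k ∣ 5 ^ 1 := by
      rw [pow_one]; exact h5.dvd_of_dvd_mul_left h4
    have h7 : k ≤ 1 := (Nat.pow_dvd_pow_iff_le_right (by norm_num)).1 h6
    have h8 : k ≠ 0 := by
      rintro rfl
      rw [pow_zero, Subgroup.card_eq_one] at hk
      rw [hk] at h3
      have h9 : (⊤ : Subgroup B) ≤ ⊥ := by
        refine le_trans ?_ h3
        intro x _
        rw [Subgroup.mem_centralizer_iff]
        intro y hy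
        rw [Subgroup.mem_bot.1 hy, one_mul, mul_one]
      have h10 : Nat.card B = 1 := by
        rw [← Subgroup.card_top (G := B), le_bot_iff.1 h9, Subgroup.card_bot]
      rw [h10] at hB
      have : 5 ∣ 1 := hB ▸ Dvd.intro_left _ rfl
      omega
    have h9 : k = 1 := by omega
    rw [h9, pow_one]
  refine ⟨pCore 5 B, inferInstance, hP5, ?_⟩
  refine (Subgroup.index_dvd_of_le h3).trans ?_
  have h4 : (MulAut.conjNormal (H := pCore 5 B) : B →* MulAut (pCore 5 B)).ker ≤
      Subgroup.centralizer (pCore 5 B : Set B) := by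
    intro g hg
    rw [MonoidHom.mem_ker] at hg
    rw [Subgroup.mem_centralizer_iff]
    intro y hy
    have h5 : ((MulAut.conjNormal (H := pCore 5 B) g ⟨y, hy⟩ : pCore 5 B) : B) = y := by
      rw [hg]; rfl
    rw [MulAut.conjNormal_apply] at h5
    calc y * g = (g * y * g⁻¹) * g := by rw [h5]
      _ = g * y := by group
  refine (Subgroup.index_dvd_of_le h4).trans ?_
  rw [Subgroup.index_ker]
  haveI : IsCyclic (pCore 5 B) := isCyclic_of_prime_card hP5
  haveI : Finite (MulAut (pCore 5 B)) := Finite.of_injective _ (DFunLike.coe_injective)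
  have h5 : Nat.card (MulAut (pCore 5 B)) = 4 := by
    rw [IsCyclic.card_mulAut, hP5]
    rfl
  rw [← h5]
  exact Subgroup.card_subgroup_dvd_card _

theorem card_fixed_modEq {D : Type*} [Group D] [Finite D] (Q : Subgroup D) [Q.Normal] {x : D}
    (hx : orderOf x = 5) : Nat.card Q ≡ Nat.card {q : Q // Commute (q : D) x} [MOD 5] := by
  haveI : Fact (Nat.Prime 5) := ⟨by norm_num⟩
  have hp : IsPGroup 5 (Subgroup.zpowers x) := by
    apply IsPGroup.of_card (n := 1)
    rw [Nat.card_zpowers, hx, pow_one]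
  letI : MulAction (Subgroup.zpowers x) Q :=
    MulAction.compHom Q ((MulAut.conjNormal (H := Q)).comp (Subgroup.zpowers x).subtype)
  have hact : ∀ (g : Subgroup.zpowers x) (q : Q), ((g • q : Q) : D) = g * q * (g : D)⁻¹ :=
    fun g q => MulAut.conjNormal_apply (g : D) q
  have h1 := hp.card_modEq_card_fixedPoints Q
  refine h1.trans ?_
  have heq : Nat.card (MulAction.fixedPoints (Subgroup.zpowers x) Q) =
      Nat.card {q : Q // Commute (q : D) x} := by
   refine Nat.card_congr
    { toFun := fun t => ⟨t.1, ?_⟩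
      invFun := fun t => ⟨t.1, ?_⟩
      left_inv := fun t => rfl
      right_inv := fun t => rfl }
   · have h2 := congrArg (Subtype.val) (t.2 ⟨x, Subgroup.mem_zpowers x⟩)
     rw [hact] at h2
     have h3 : x * (t : Q) * x⁻¹ = ((t : Q) : D) := h2
     have h4 : x * (t : Q) = ((t : Q) : D) * x := by
       calc x * (t : Q) = (x * (t : Q) * x⁻¹) * x := by group
         _ = _ := by rw [h3]
     exact h4.symm
   · rintro ⟨_, i, rfl⟩
     apply Subtype.ext
     rw [hact]
     have h2 : Commute ((t : Q) : D) (x ^ i) := t.2.zpow_right i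
     change x ^ i * (t : Q) * (x ^ i)⁻¹ = _
     rw [← h2.eq]
     group
  rw [heq]

/-- **The class number of a coprime transitive linear group on 81 vectors**, extraspecial case. -/
theorem eightyone {D : Type v} {E : Type u} [Group D] [Finite D] [AddCommGroup E] [Finite E]
    [Nontrivial E] [DistribMulAction D E] [FaithfulSMul D E]
    (htr : ∀ x y : E, x ≠ 0 → y ≠ 0 → ∃ d : D, d • x = y) (h3 : ∀ e : E, 3 • e = 0)
    (hcop : ¬ 3 ∣ Nat.card D) (hE : Nat.card E = 81) (h13 : ¬ 13 ∣ Nat.card D)
    (hns : ¬ Cfsg.Agent.H717.Semi.IsSemi D E)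
    (hA : ∀ A : Subgroup D, A.Normal → (∀ a ∈ A, ∀ b ∈ A, a * b = b * a) → Nat.card A ∣ 2)
    {v : E} (hv : v ≠ 0) :
    Nat.card (ConjClasses D) + Nat.card (ConjClasses (MulAction.stabilizer D v)) < 81 := by
  haveI : Fact (Nat.Prime 3) := ⟨by norm_num⟩
  haveI : Fact (Nat.Prime 5) := ⟨by norm_num⟩
  haveI : Fact (Nat.Prime 2) := ⟨Nat.prime_two⟩
  have hE4 : Nat.card E = 3 ^ 4 := hE.trans (by norm_num)
  -- the order of `D`
  have hD80 := H717.Semi.card_eq htr hv
  rw [hE] at hD80
  have hdvd : Nat.card D ∣ 2 ^ 9 * 5 := by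
    obtain ⟨σ, hσ⟩ := H717.Rep.exists_gl (D := D) h3 hE4
    have h1 : Nat.card D ∣ Nat.card (GL (Fin 4) (ZMod 3)) := by
      rw [Nat.card_congr (MonoidHom.ofInjective hσ).toEquiv]
      exact Subgroup.card_subgroup_dvd_card _
    rw [Matrix.card_GL_field, ZMod.card] at h1
    have h2 : (∏ i : Fin 4, (3 ^ 4 - 3 ^ (i : ℕ))) = (2 ^ 9 * 5) * (3 ^ 6 * 13) := by
      rw [Fin.prod_univ_four]
      rfl
    rw [h2] at h1
    refine Nat.Coprime.dvd_of_dvd_mul_right ?_ h1
    refine Nat.Coprime.mul_right ?_ ?_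
    · exact Nat.Coprime.pow_right _ ((Nat.Prime.coprime_iff_not_dvd (by norm_num)).2 hcop).symm
    · exact ((Nat.Prime.coprime_iff_not_dvd (by norm_num)).2 h13).symm
  have hD : ∃ a, Nat.card D = 2 ^ a * 5 := by
    obtain ⟨t, ht⟩ : 5 ∣ Nat.card D := ⟨16 * Nat.card (MulAction.stabilizer D v), by omega⟩
    have h1 : t ∣ 2 ^ 9 := by
      rw [ht, mul_comm (2 ^ 9)] at hdvd
      exact Nat.dvd_of_mul_dvd_mul_left (by norm_num) hdvd
    obtain ⟨a, -, ha⟩ := (Nat.dvd_prime_pow Nat.prime_two).1 h1
    exact ⟨a, by rw [ht, ha, mul_comm]⟩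
  obtain ⟨a, ha⟩ := hD
  haveI : Group.IsSolvable D := S0144.result 2 5 a 1 Nat.prime_two (by norm_num) (by rw [ha, pow_one])
  -- the odd core is trivial
  have hcore : pPrimeCore 2 D = ⊥ := by
    by_contra hne
    apply hns
    haveI := Lib.Cores.pPrimeCore_normal (G := D) 2
    refine H717.FieldP.isSemi_of_isPGroup htr h3 hE4 (r := 5) ?_ (pPrimeCore 2 D) ?_ hne
    · intro i hi1 hi4
      interval_cases i <;> norm_num
    · have h1 := Lib.Cores.pPrimeCore_coprime (G := D) 2
      have h2 : Nat.card (pPrimeCore 2 D) ∣ 5 ^ 1 := by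
        have h3 : Nat.card (pPrimeCore 2 D) ∣ 2 ^ a * 5 := ha ▸ Subgroup.card_subgroup_dvd_card _
        rw [pow_one]
        exact (h1.pow_right a).dvd_of_dvd_mul_left h3
      obtain ⟨k, -, hk⟩ := (Nat.dvd_prime_pow (by norm_num)).1 h2
      exact IsPGroup.of_card hk
  have hC := Classification.LocalCore.centralizer_pCore_le 2 hcore
  haveI hQn := Lib.Cores.pCore_normal (G := D) 2
  set Q : Subgroup D := pCore 2 D with hQdef
  have hQp : IsPGroup 2 Q := Lib.Cores.pCore_isPGroup 2
  have hQne : Q ≠ ⊥ := by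
    intro h0
    rw [h0] at hC
    have h9 : (⊤ : Subgroup D) ≤ ⊥ := by
      refine le_trans ?_ hC
      intro x _
      rw [Subgroup.mem_centralizer_iff]
      intro y hy
      rw [Subgroup.mem_bot.1 hy, one_mul, mul_one]
    have h10 : Nat.card D = 1 := by
      rw [← Subgroup.card_top (G := D), le_bot_iff.1 h9, Subgroup.card_bot]
    omega
  haveI : Nontrivial Q := (Subgroup.nontrivial_iff_ne_bot Q).2 hQne
  haveI : Nontrivial (Subgroup.center Q) := hQp.center_nontrivial
  haveI : Group.IsNilpotent Q := hQp.isNilpotent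
  -- characteristic commutative subgroups of `Q`
  have hch : ∀ A : Subgroup Q, A.Characteristic → (∀ a ∈ A, ∀ b ∈ A, a * b = b * a) →
      Nat.card A ∣ 2 := by
    intro A hAc hcomm
    haveI := hAc
    have h1 := hA (A.map Q.subtype) inferInstance (by
      rintro _ ⟨a, ha, rfl⟩ _ ⟨b, hb, rfl⟩
      exact congrArg Subtype.val (hcomm a ha b hb))
    rwa [Subgroup.card_map_of_injective Q.subtype_injective] at h1
  have hcl := ExtraTwo.commutator_le_center hch
  have hZ2 : Nat.card (Subgroup.center Q) = 2 := by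
    have h1 := hch (Subgroup.center Q) inferInstance (fun a ha b _ => (Subgroup.mem_center_iff.1 ha b).symm)
    have h2 : 1 < Nat.card (Subgroup.center Q) := Finite.one_lt_card
    rcases (Nat.dvd_prime Nat.prime_two).1 h1 with h3 | h3
    · omega
    · exact h3
  obtain ⟨z, hz1⟩ := exists_ne (1 : Subgroup.center Q)
  have hzz : z * z = 1 := by
    have := pow_card_eq_one' (x := z)
    rwa [hZ2, sq] at this
  have hzall : ∀ t : Subgroup.center Q, t = 1 ∨ t = z := by
    intro t
    obtain ⟨x, y, hxy, hun⟩ := Nat.card_eq_two_iff.1 hZ2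
    have m1 : ∀ t : Subgroup.center Q, t = x ∨ t = y := by
      intro t
      have : t ∈ ({x, y} : Set (Subgroup.center Q)) := by rw [hun]; trivial
      simpa using this
    rcases m1 1 with h6 | h6 <;> rcases m1 z with h7 | h7 <;> rcases m1 t with h8 | h8
    · exact absurd (h7.trans h6.symm) hz1
    · exact absurd (h7.trans h6.symm) hz1
    · exact Or.inl (h8.trans h6.symm)
    · exact Or.inr (h8.trans h7.symm)
    · exact Or.inr (h8.trans h7.symm)
    · exact Or.inl (h8.trans h6.symm)
    · exact absurd (h7.trans h6.symm) hz1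
    · exact absurd (h7.trans h6.symm) hz1
  have hzD : ((z : Q) : D) ∈ Subgroup.center D := by
    have h1 : (Subgroup.center Q).map Q.subtype ≤ Subgroup.center D := by
      haveI : ((Subgroup.center Q).map Q.subtype).Normal := inferInstance
      apply ExtraTwo.le_center_of_card_dvd_two
      rw [Subgroup.card_map_of_injective Q.subtype_injective, hZ2]
    exact h1 ⟨(z : Q), z.2, rfl⟩
  have hzD2 : ((z : Q) : D) * ((z : Q) : D) = 1 := by
    have := congrArg (fun t : Subgroup.center Q => ((t : Q) : D)) hzz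
    simpa using this
  have hzD1 : ((z : Q) : D) ≠ 1 := by
    intro h
    apply hz1
    apply Subtype.ext
    apply Subtype.ext
    exact h
  have hneg := smul_eq_neg htr hzD hzD2 hzD1
  have h16 : Nat.card (Q ⧸ Subgroup.center Q) ≤ 16 := by
    refine card_quotient_center_le (E := E) h3 hE (z : Q) (fun e => hneg e) z.2 ?_
    intro x y
    have h1 : ⁅x, y⁆ ∈ Subgroup.center Q :=
      hcl (Subgroup.commutator_mem_commutator (Subgroup.mem_top x) (Subgroup.mem_top y))
    rcases hzall ⟨_, h1⟩ with h2 | h2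
    · exact Or.inl (congrArg Subtype.val h2)
    · exact Or.inr (congrArg Subtype.val h2)
  have hQ32 : Nat.card Q ≤ 32 := by
    rw [Subgroup.card_eq_card_quotient_mul_card_subgroup (Subgroup.center Q), hZ2]
    omega
  obtain ⟨s, hs⟩ := IsPGroup.iff_card.1 hQp
  have hs5 : s ≤ 5 := by
    rw [hs] at hQ32
    exact (Nat.pow_le_pow_iff_right (by norm_num : 1 < 2)).1 (hQ32.trans (by norm_num))
  -- elements of order five
  have hfix : ∀ x : D, orderOf x = 5 → s = 5 ∧ Nat.card {q : Q // Commute (q : D) x} = 2 := by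
    intro x hx
    have hcards : Nat.card {q : Q // Commute (q : D) x} =
        Nat.card ((Subgroup.centralizer ({x} : Set D)).subgroupOf Q) :=
      Nat.card_congr
        { toFun := fun t => ⟨t.1, Subgroup.mem_subgroupOf.2 (Subgroup.mem_centralizer_singleton_iff.2 t.2)⟩
          invFun := fun t => ⟨t.1, Subgroup.mem_centralizer_singleton_iff.1 (Subgroup.mem_subgroupOf.1 t.2)⟩
          left_inv := fun t => rfl
          right_inv := fun t => rfl }
    have hmod := card_fixed_modEq Q hx
    have hdv : Nat.card {q : Q // Commute (q : D) x} ∣ 2 ^ s := by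
      rw [hcards, ← hs]; exact Subgroup.card_subgroup_dvd_card _
    obtain ⟨c, hcs, hc⟩ := (Nat.dvd_prime_pow Nat.prime_two).1 hdv
    rw [hc, hs] at hmod
    have hcne : c ≠ s := by
      rintro rfl
      have h1 : (Subgroup.centralizer ({x} : Set D)).subgroupOf Q = ⊤ := by
        apply Subgroup.eq_top_of_card_eq
        rw [← hcards, hc, hs]
      have h2 : x ∈ Q := by
        apply hC
        rw [Subgroup.mem_centralizer_iff]
        intro y hy
        have h3 : (⟨y, hy⟩ : Q) ∈ (Subgroup.centralizer ({x} : Set D)).subgroupOf Q := by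
          rw [h1]; exact Subgroup.mem_top _
        exact Subgroup.mem_centralizer_singleton_iff.1 (Subgroup.mem_subgroupOf.1 h3)
      have h3 : orderOf (⟨x, h2⟩ : Q) = 5 := by
        rw [← hx]; exact Subgroup.orderOf_mk x h2
      have h4 : 5 ∣ 2 ^ c := by
        rw [← hs, ← h3]; exact orderOf_dvd_natCard _
      have h5 := (Nat.Prime.dvd_of_dvd_pow (by norm_num) h4 : 5 ∣ 2)
      omega
    have hc0 : c ≠ 0 := by
      rintro rfl
      rw [pow_zero] at hc
      have h1 : (⟨1, Commute.one_left x⟩ : {q : Q // Commute (q : D) x}) =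
          ⟨(z : Q), (Subgroup.mem_center_iff.1 hzD x).symm⟩ := by
        haveI : Subsingleton {q : Q // Commute (q : D) x} := (Nat.card_eq_one_iff_unique.1 hc).1
        exact Subsingleton.elim _ _
      apply hzD1
      exact (congrArg (fun t : {q : Q // Commute (q : D) x} => ((t : Q) : D)) h1).symm
    have hcs' : c < s := lt_of_le_of_ne hcs hcne
    rw [hc]
    clear_value Q
    clear * - hmod hc0 hcs' hs5
    unfold Nat.ModEq at hmod
    interval_cases s <;> interval_cases c <;> simp_all
  -- a normal subgroup of order 160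
  obtain ⟨x, hx⟩ : ∃ x : D, orderOf x = 5 := by
    apply exists_prime_orderOf_dvd_card'
    rw [ha]; exact Dvd.intro_left _ rfl
  have hs' := (hfix x hx).1
  rw [hs'] at hs
  have hQcard : Nat.card Q = 32 := by rw [hs]; norm_num
  have hQD : Nat.card D = Nat.card (D ⧸ Q) * 32 := by
    rw [← hQcard]; exact Subgroup.card_eq_card_quotient_mul_card_subgroup Q
  obtain ⟨b, hb⟩ : ∃ b, Nat.card (D ⧸ Q) = 2 ^ b * 5 := by
    have h1 : Nat.card (D ⧸ Q) ∣ 2 ^ a * 5 := by
      rw [← ha, hQD]; exact Dvd.intro _ rfl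
    have h2 : 5 ∣ Nat.card (D ⧸ Q) := by
      have h3 : 5 ∣ Nat.card (D ⧸ Q) * 32 := by rw [← hQD, ha]; exact Dvd.intro_left _ rfl
      exact Nat.Coprime.dvd_of_dvd_mul_right (by norm_num) h3
    obtain ⟨t, ht⟩ := h2
    rw [ht, mul_comm (2 ^ a)] at h1
    obtain ⟨b, -, hb⟩ := (Nat.dvd_prime_pow Nat.prime_two).1
      (Nat.dvd_of_mul_dvd_mul_left (by norm_num) h1)
    exact ⟨b, by rw [ht, hb, mul_comm]⟩
  obtain ⟨P, hPn, hP5, hP4⟩ := exists_normal_five (B := D ⧸ Q) hb
    (Lib.Cores.pCore_quotient_pCore (G := D) 2)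
  haveI := hPn
  let N : Subgroup D := P.comap (QuotientGroup.mk' Q)
  haveI hNn : N.Normal := inferInstance
  have hNi : N.index = P.index := Subgroup.index_comap_of_surjective P (QuotientGroup.mk'_surjective Q)
  have hNcard : Nat.card N = 160 := by
    have h1 := N.card_mul_index
    have h2 := P.card_mul_index
    rw [hP5] at h2
    rw [hQD, ← h2, hNi] at h1
    have h3 : 0 < P.index := Nat.pos_of_ne_zero Subgroup.index_ne_zero_of_finite
    have h4 : Nat.card N * P.index = 160 * P.index := by rw [h1]; ring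
    exact Nat.eq_of_mul_eq_mul_right h3 h4
  have hQN : Q ≤ N := by
    intro q hq
    change (QuotientGroup.mk' Q) q ∈ P
    have : (QuotientGroup.mk' Q) q = 1 := (QuotientGroup.eq_one_iff q).2 hq
    rw [this]
    exact one_mem P
  have hkN : Nat.card (ConjClasses N) ≤ 16 := by
    refine ExtraTwo.card_conjClasses_le (Q.subgroupOf N) ?_ hNcard ?_
    · rw [Nat.card_congr (Subgroup.subgroupOfEquivOfLe hQN).toEquiv, hQcard]
    · intro y hy
      refine le_of_le_of_eq ?_ (hfix (y : D) (by rw [← hy]; exact Subgroup.orderOf_coe y)).2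
      refine Nat.card_le_card_of_injective
        (fun t : {q : Q.subgroupOf N // Commute (q : N) y} =>
          (⟨⟨((t.1 : N) : D), Subgroup.mem_subgroupOf.1 t.1.2⟩, ?_⟩ :
            {q : Q // Commute (q : D) (y : D)})) ?_
      · exact congrArg (fun t : N => (t : D)) t.2.eq
      · intro t t' h
        apply Subtype.ext
        apply Subtype.ext
        apply Subtype.ext
        exact congrArg (fun t : {q : Q // Commute (q : D) (y : D)} => ((t : Q) : D)) h
  have hidx : N.index ≤ 4 := by rw [hNi]; exact Nat.le_of_dvd (by norm_num) hP4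
  have hkDN : Nat.card (ConjClasses (D ⧸ N)) ≤ 4 := by
    refine le_trans ?_ hidx
    rw [Subgroup.index_eq_card]
    exact Nat.card_le_card_of_surjective _ ConjClasses.mk_surjective
  have hkD := H540.ClassNum.le_normal_mul_quotient N
  have hkD' : Nat.card (ConjClasses D) ≤ 16 * 4 := hkD.trans (Nat.mul_le_mul hkN hkDN)
  have hst : Nat.card (MulAction.stabilizer D v) ≤ 8 := by
    have h1 := N.card_mul_index
    rw [hNcard] at h1
    omega
  have hkS : Nat.card (ConjClasses (MulAction.stabilizer D v)) ≤ 8 :=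
    (Nat.card_le_card_of_surjective _ ConjClasses.mk_surjective).trans hst
  omega

end Cfsg.Agent.H718.EightyOne
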