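import Cfsg.Agent.H540.ClassNum
import Cfsg.Agent.H940.FrattiniAut
import Cfsg.Agent.Lib.FrattiniPGroup
import Cfsg.Agent.Lib.Cores
import Cfsg.Agent.PLocal.HallHigmanPrime
import Cfsg.Agent.PLocal.PSolvable
import Cfsg.Agent.LieRecognition.FT61.O3

/-!
# The class number of a `p`-solvable group with trivial `p'`-core

Application of the `k(GV)` theorem (hypothesis `KGVLe`): `k(X) ≤ |P|`, strict if `P` is nonabelian.
-/

set_option autoImplicit false

open scoped commutatorElement

namespace Cfsg.Agent.H718.KGVApp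

open Cfsg.Agent.H540.ClassNum

universe u

/-- The `k(GV)` theorem. -/
def KGVLe : Prop := ∀ (p : ℕ) [Fact p.Prime] (X : Type u) [Group X] [Finite X]
  (V : Subgroup X) [V.Normal], (∀ v ∈ V, v ^ p = 1) → ¬ p ∣ V.index →
    Subgroup.centralizer (V : Set X) = V → Nat.card (ConjClasses X) ≤ Nat.card V

section equality

variable {X : Type*} [Group X] [Finite X]

/-- The equality case of `k(X) ≤ k(N) k(X/N)`. -/
theorem eq_case (N : Subgroup X) [N.Normal]
    (h : Nat.card (ConjClasses X) = Nat.card (ConjClasses N) * Nat.card (ConjClasses (X ⧸ N))) :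
    (∀ n ∈ N, ∀ g : X, ∃ c ∈ N, Commute n (g * c)) ∧
    (∀ x g : X, Commute (QuotientGroup.mk x : X ⧸ N) (QuotientGroup.mk g) →
      ∃ c ∈ N, Commute x (g * c)) := by
  classical
  have := Fintype.ofFinite X
  have := Fintype.ofFinite N
  have := Fintype.ofFinite (X ⧸ N)
  have hX : 0 < Nat.card X := Nat.card_pos
  have e0 : ∑ x : X, cent x (⊤ : Subgroup X) = Nat.card (ConjClasses X) * Nat.card X :=
    card_conjClasses_mul_card.symm
  have l1 : ∀ x : X, cent x (⊤ : Subgroup X) ≤
      cent x N * cent (QuotientGroup.mk x : X ⧸ N) (⊤ : Subgroup (X ⧸ N)) := cent_top_le_quotient N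
  have e1 : ∑ x : X, cent x N * cent (QuotientGroup.mk x : X ⧸ N) (⊤ : Subgroup (X ⧸ N)) =
      ∑ z : X ⧸ N, ∑ x : {x : X // (QuotientGroup.mk x : X ⧸ N) = z},
          cent (x : X) N * cent z (⊤ : Subgroup (X ⧸ N)) := by
    rw [← Fintype.sum_fiberwise (fun x : X => (QuotientGroup.mk x : X ⧸ N))]
    refine Finset.sum_congr rfl fun z _ => Finset.sum_congr rfl fun x _ => ?_
    rw [x.2]
  have l2 : ∀ z : X ⧸ N, ∑ x : {x : X // (QuotientGroup.mk x : X ⧸ N) = z},
      cent (x : X) N * cent z (⊤ : Subgroup (X ⧸ N)) ≤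
      (∑ n : N, cent (n : X) N) * cent z (⊤ : Subgroup (X ⧸ N)) := by
    intro z
    rw [← Finset.sum_mul]
    exact Nat.mul_le_mul_right _ (sum_cent_coset_le N z)
  have e2 : ∑ z : X ⧸ N, (∑ n : N, cent (n : X) N) * cent z (⊤ : Subgroup (X ⧸ N)) =
      Nat.card (ConjClasses N) * Nat.card (ConjClasses (X ⧸ N)) * Nat.card X := by
    rw [← Finset.mul_sum, ← card_conjClasses_subgroup_mul_card, ← card_conjClasses_mul_card,
      Subgroup.card_eq_card_quotient_mul_card_subgroup N]
    ring
  have s1 : ∑ x : X, cent x (⊤ : Subgroup X) ≤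
      ∑ x : X, cent x N * cent (QuotientGroup.mk x : X ⧸ N) (⊤ : Subgroup (X ⧸ N)) :=
    Finset.sum_le_sum fun x _ => l1 x
  have s2 : ∑ z : X ⧸ N, ∑ x : {x : X // (QuotientGroup.mk x : X ⧸ N) = z},
      cent (x : X) N * cent z (⊤ : Subgroup (X ⧸ N)) ≤
      ∑ z : X ⧸ N, (∑ n : N, cent (n : X) N) * cent z (⊤ : Subgroup (X ⧸ N)) :=
    Finset.sum_le_sum fun z _ => l2 z
  have t : ∑ x : X, cent x (⊤ : Subgroup X) =
      ∑ z : X ⧸ N, (∑ n : N, cent (n : X) N) * cent z (⊤ : Subgroup (X ⧸ N)) := by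
    rw [e0, e2, h]
  have t1 : ∑ x : X, cent x (⊤ : Subgroup X) =
      ∑ x : X, cent x N * cent (QuotientGroup.mk x : X ⧸ N) (⊤ : Subgroup (X ⧸ N)) :=
    le_antisymm s1 (by rw [e1, t]; exact s2)
  have t2 : ∑ z : X ⧸ N, ∑ x : {x : X // (QuotientGroup.mk x : X ⧸ N) = z},
      cent (x : X) N * cent z (⊤ : Subgroup (X ⧸ N)) =
      ∑ z : X ⧸ N, (∑ n : N, cent (n : X) N) * cent z (⊤ : Subgroup (X ⧸ N)) := by
    rw [← e1, ← t1, t]
  have u1 : ∀ x : X, cent x (⊤ : Subgroup X) =
      cent x N * cent (QuotientGroup.mk x : X ⧸ N) (⊤ : Subgroup (X ⧸ N)) := by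
    intro x
    exact (Finset.sum_eq_sum_iff_of_le (fun x _ => l1 x)).1 t1 x (Finset.mem_univ x)
  have u2 : ∀ z : X ⧸ N, ∑ x : {x : X // (QuotientGroup.mk x : X ⧸ N) = z},
      cent (x : X) N = ∑ n : N, cent (n : X) N := by
    intro z
    have := (Finset.sum_eq_sum_iff_of_le (fun z _ => l2 z)).1 t2 z (Finset.mem_univ z)
    rw [← Finset.sum_mul] at this
    exact Nat.eq_of_mul_eq_mul_right (cent_pos _ _) this
  constructor
  · intro n hn g
    set z : X ⧸ N := QuotientGroup.mk g with hz
    have h1 : ∑ x : {x : X // (QuotientGroup.mk x : X ⧸ N) = z}, cent (x : X) N =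
        ∑ n : N, Nat.card {x : X // (QuotientGroup.mk x : X ⧸ N) = z ∧ Commute (n : X) x} := by
      have h2 : Nat.card (Σ x : {x : X // (QuotientGroup.mk x : X ⧸ N) = z}, {y : X // y ∈ N ∧ Commute (x : X) y}) =
          Nat.card (Σ n : N, {x : X // (QuotientGroup.mk x : X ⧸ N) = z ∧ Commute (n : X) x}) := by
        apply Nat.card_congr
        exact
          { toFun := fun p => ⟨⟨p.2.1, p.2.2.1⟩, ⟨p.1.1, p.1.2, p.2.2.2.symm⟩⟩
            invFun := fun p => ⟨⟨p.2.1, p.2.2.1⟩, ⟨p.1.1, p.1.2, p.2.2.2.symm⟩⟩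
            left_inv := fun p => rfl
            right_inv := fun p => rfl }
      rw [Nat.card_sigma, Nat.card_sigma] at h2
      exact h2
    have l3 : ∀ n : N, Nat.card {x : X // (QuotientGroup.mk x : X ⧸ N) = z ∧ Commute (n : X) x} ≤
        cent (n : X) N := by
      intro n
      rcases isEmpty_or_nonempty {x : X // (QuotientGroup.mk x : X ⧸ N) = z ∧ Commute (n : X) x} with he | ⟨⟨x0, hx0, hc0⟩⟩
      · rw [Nat.card_of_isEmpty]; exact Nat.zero_le _
      · unfold cent
        refine Nat.card_le_card_of_injective (fun x => ⟨x0⁻¹ * x.1, ?_, ?_⟩) ?_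
        · rw [← QuotientGroup.eq, hx0, x.2.1]
        · exact hc0.inv_right.mul_right x.2.2
        · intro a b hab
          have := congrArg Subtype.val hab
          exact Subtype.ext (mul_left_cancel this)
    have h3 := (Finset.sum_eq_sum_iff_of_le (fun n _ => l3 n)).1 (h1.symm.trans (u2 z))
      ⟨n, hn⟩ (Finset.mem_univ _)
    have h4 : 0 < Nat.card {x : X // (QuotientGroup.mk x : X ⧸ N) = z ∧ Commute n x} := by
      have : Nat.card {x : X // (QuotientGroup.mk x : X ⧸ N) = z ∧ Commute n x} = cent n N := h3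
      rw [this]
      exact cent_pos _ _
    obtain ⟨⟨x, hx, hc⟩⟩ := (Nat.card_pos_iff.1 h4).1
    refine ⟨g⁻¹ * x, ?_, ?_⟩
    · rw [← QuotientGroup.eq, hx]
    · rw [mul_inv_cancel_left]; exact hc
  · intro x g hxg
    have h1 := u1 x
    rw [cent_top_eq x N] at h1
    have h2 := Nat.eq_of_mul_eq_mul_left (cent_pos x N) h1
    rw [cent_top] at h2
    have h3 : N.relIndex (Subgroup.centralizer {x}) =
        Nat.card ((Subgroup.centralizer {x}).map (QuotientGroup.mk' N)) := by
      have := Subgroup.relIndex_ker (K := Subgroup.centralizer ({x} : Set X)) (QuotientGroup.mk' N)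
      rw [QuotientGroup.ker_mk'] at this
      rw [this]
    have h4 : (Subgroup.centralizer ({x} : Set X)).map (QuotientGroup.mk' N) ≤
        Subgroup.centralizer ({(QuotientGroup.mk x : X ⧸ N)} : Set (X ⧸ N)) := by
      rintro _ ⟨c, hc, rfl⟩
      rw [SetLike.mem_coe, Subgroup.mem_centralizer_singleton_iff] at hc
      rw [Subgroup.mem_centralizer_singleton_iff]
      have := congrArg (QuotientGroup.mk' N) hc
      rw [map_mul, map_mul] at this
      exact this
    have h5 := Subgroup.eq_of_le_of_card_ge h4 (by rw [← h3, h2])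
    have h6 : (QuotientGroup.mk g : X ⧸ N) ∈ Subgroup.centralizer ({(QuotientGroup.mk x : X ⧸ N)} : Set (X ⧸ N)) := by
      rw [Subgroup.mem_centralizer_singleton_iff]
      exact hxg.symm.eq
    rw [← h5] at h6
    obtain ⟨y, hy, hyg⟩ := h6
    rw [SetLike.mem_coe, Subgroup.mem_centralizer_singleton_iff] at hy
    refine ⟨g⁻¹ * y, ?_, ?_⟩
    · rw [← QuotientGroup.eq]; exact hyg.symm
    · rw [mul_inv_cancel_left]
      exact (show Commute y x from hy).symm

/-- `k(G) = |G|` only for abelian groups. -/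
theorem comm_of_card_eq {G : Type*} [Group G] [Finite G]
    (h : Nat.card (ConjClasses G) = Nat.card G) (a b : G) : a * b = b * a := by
  have h1 : Function.Bijective (ConjClasses.mk : G → ConjClasses G) :=
    (Nat.bijective_iff_surjective_and_card _).2 ⟨ConjClasses.mk_surjective, h.symm⟩
  have h2 : ConjClasses.mk (b * a * b⁻¹) = ConjClasses.mk a :=
    ConjClasses.mk_eq_mk_iff_isConj.2 (isConj_iff.2 ⟨b⁻¹, by group⟩)
  have h3 := h1.1 h2
  rw [mul_inv_eq_iff_eq_mul] at h3
  exact h3.symm

end equality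

section centralize

variable {G : Type*} [Group G] [Finite G] {p : ℕ} [hp : Fact p.Prime]

/-- A `p`-subgroup fixing all conjugacy classes of a normal `p'`-subgroup centralises it. -/
theorem centralize_of_fix (K : Subgroup G) [hK : K.Normal] (hKp : ¬ p ∣ Nat.card K) (Q : Subgroup G)
    (hQ : IsPGroup p Q)
    (h : ∀ g ∈ Q, ∀ n ∈ K, ∃ c ∈ K, g * n * g⁻¹ = c * n * c⁻¹) :
    K ≤ Subgroup.centralizer (Q : Set G) := by
  classical
  have hcl : ∀ (g : Q) (n : K), IsConj n ⟨g * n * (g : G)⁻¹, hK.conj_mem (n : G) n.2 g⟩ := by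
    intro g n
    obtain ⟨c, hc, he⟩ := h g g.2 n n.2
    exact isConj_iff.2 ⟨⟨c, hc⟩, Subtype.ext he.symm⟩
  let C : Subgroup K := (Subgroup.centralizer (Q : Set G)).subgroupOf K
  have hC : C = ⊤ := by
    by_contra hne
    obtain ⟨n, hn⟩ := LieRecognition.FT61.O3.exists_not_conj C hne
    let O : Type _ := {m : K // IsConj n m}
    let act : MulAction Q O :=
      { smul := fun x m => ⟨⟨(x : G) * (m.1 : G) * (x : G)⁻¹,
          hK.conj_mem (m.1 : G) m.1.2 x⟩, m.2.trans (hcl x m.1)⟩
        one_smul := fun m => by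
          apply Subtype.ext
          apply Subtype.ext
          show ((1 : Q) : G) * (m.1 : G) * ((1 : Q) : G)⁻¹ = m.1
          simp
        mul_smul := fun x y m => by
          apply Subtype.ext
          apply Subtype.ext
          show ((x * y : Q) : G) * (m.1 : G) * ((x * y : Q) : G)⁻¹ =
            (x : G) * ((y : G) * (m.1 : G) * (y : G)⁻¹) * (x : G)⁻¹
          rw [Subgroup.coe_mul]; group }
    have hOcard : ¬ p ∣ Nat.card O := by
      intro hdiv
      apply hKp
      refine hdiv.trans ?_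
      have h2 : Nat.card O = (MulAction.stabilizer (ConjAct K) n).index := by
        rw [MulAction.index_stabilizer, ← Nat.card_coe_set_eq]
        apply Nat.card_congr
        refine Equiv.subtypeEquivRight fun m => ?_
        rw [ConjAct.mem_orbit_conjAct, isConj_comm]
      rw [h2]
      exact (Subgroup.index_dvd_card _).trans (Nat.card_congr (ConjAct.ofConjAct (G := K)).toEquiv).dvd
    obtain ⟨m, hm⟩ := hQ.nonempty_fixed_point_of_prime_not_dvd_card O hOcard
    obtain ⟨c, hc⟩ := isConj_iff.1 m.2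
    apply hn c⁻¹
    rw [inv_inv, hc]
    show (m.1 : G) ∈ Subgroup.centralizer (Q : Set G)
    rw [Subgroup.mem_centralizer_iff]
    intro x hx
    have h2 : (⟨x, hx⟩ : Q) • m = m := hm ⟨x, hx⟩
    have h3 : x * (m.1 : G) * x⁻¹ = m.1 := congrArg (fun z : O => (z.1 : G)) h2
    calc x * (m.1 : G) = x * (m.1 : G) * x⁻¹ * x := by group
      _ = (m.1 : G) * x := by rw [h3]
  intro n hn
  have : (⟨n, hn⟩ : K) ∈ C := by rw [hC]; trivial
  exact this

end centralize

section stepA

variable {M : Type u} [Group M] [Finite M] {p : ℕ} [hp : Fact p.Prime]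

/-- An element of order prime to... : `g ^ (p ^ k) ∈ N` and `p ∤ |M : N|` imply `g ∈ N`. -/
theorem mem_of_pow_mem (N : Subgroup M) [N.Normal] (hidx : ¬ p ∣ N.index) {g : M} {k : ℕ}
    (h : g ^ (p ^ k) ∈ N) : g ∈ N := by
  rw [← QuotientGroup.eq_one_iff] at h ⊢
  rw [QuotientGroup.mk_pow] at h
  have h1 : orderOf (g : M ⧸ N) ∣ p ^ k := orderOf_dvd_of_pow_eq_one h
  have h2 : orderOf (g : M ⧸ N) ∣ Nat.card (M ⧸ N) := orderOf_dvd_natCard _
  have h3 : Nat.Coprime (p ^ k) (Nat.card (M ⧸ N)) :=
    Nat.Coprime.pow_left _ ((Nat.Prime.coprime_iff_not_dvd hp.out).2 hidx)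
  exact orderOf_eq_one_iff.1 (Nat.dvd_one.1 (h3 ▸ Nat.dvd_gcd h1 h2))

/-- Elements which centralise `N / Φ(N)` are in `N`. -/
theorem mem_of_trivial_frattini (N : Subgroup M) [hN : N.Normal] (hNp : IsPGroup p N)
    (hidx : ¬ p ∣ N.index) (hc : Subgroup.centralizer (N : Set M) ≤ N) (g : M)
    (h : ∀ x : N, MulAut.conjNormal g x * x⁻¹ ∈ frattini N) : g ∈ N := by
  obtain ⟨n, hn⟩ := (IsPGroup.iff_card (p := p)).1 hNp
  obtain ⟨r, -, hr⟩ := (Nat.dvd_prime_pow hp.out).1
    (show (frattini N).index ∣ p ^ n by rw [← hn]; exact Subgroup.index_dvd_card _)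
  -- the automorphisms acting trivially on the Frattini quotient
  have hFc : (frattini N).Characteristic := inferInstance
  let A : Subgroup (MulAut N) :=
    { carrier := {α | ∀ x : N, α x * x⁻¹ ∈ frattini N}
      one_mem' := fun x => by simp
      mul_mem' := by
        intro a b ha hb x
        have h1 : (a * b) x * x⁻¹ = (a (b x) * (b x)⁻¹) * (b x * x⁻¹) := by
          rw [MulAut.mul_apply]; group
        rw [h1]
        exact mul_mem (ha _) (hb _)
      inv_mem' := by
        intro a ha x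
        have h1 := ha (a⁻¹ x)
        have h2 : a (a⁻¹ x) = x := by
          rw [← MulAut.mul_apply, mul_inv_cancel, MulAut.one_apply]
        rw [h2] at h1
        have h3 := (frattini N).inv_mem h1
        rw [mul_inv_rev, inv_inv] at h3
        exact h3 }
  have hA : Nat.card A ∣ p ^ (r * (n - r)) :=
    H940.card_trivial_on_frattini_dvd hn hr A fun α hα => hα
  have hgA : MulAut.conjNormal g ∈ A := h
  have hpow : (MulAut.conjNormal g : MulAut N) ^ (p ^ (r * (n - r))) = 1 := by
    have h1 : (⟨_, hgA⟩ : A) ^ (p ^ (r * (n - r))) = 1 := by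
      obtain ⟨t, ht⟩ := hA
      rw [ht, pow_mul, pow_card_eq_one', one_pow]
    exact congrArg Subtype.val h1
  refine mem_of_pow_mem N hidx (k := r * (n - r)) (hc ?_)
  rw [Subgroup.mem_centralizer_iff]
  intro x hx
  have h1 : MulAut.conjNormal (g ^ (p ^ (r * (n - r)))) (⟨x, hx⟩ : N) = ⟨x, hx⟩ := by
    rw [map_pow, hpow, MulAut.one_apply]
  have h2 := congrArg Subtype.val h1
  rw [MulAut.conjNormal_apply] at h2
  rw [mul_inv_eq_iff_eq_mul] at h2
  exact h2.symm

/-- `k(M) ≤ |N|` for a normal Sylow `p`-subgroup `N` with `C(N) ≤ N`, and in case of equality `N` is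
abelian. -/
theorem stepA (hk : KGVLe.{u}) (N : Subgroup M) [hN : N.Normal] (hNp : IsPGroup p N)
    (hidx : ¬ p ∣ N.index) (hc : Subgroup.centralizer (N : Set M) ≤ N) :
    Nat.card (ConjClasses M) ≤ Nat.card N ∧
      (Nat.card (ConjClasses M) = Nat.card N → ∀ a ∈ N, ∀ b ∈ N, a * b = b * a) := by
  have hFc : (frattini N).Characteristic := inferInstance
  set F : Subgroup M := (frattini N).map N.subtype with hF
  have hFn : F.Normal := inferInstance
  have hFN : F ≤ N := Subgroup.map_subtype_le _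
  set V : Subgroup (M ⧸ F) := N.map (QuotientGroup.mk' F) with hV
  have hVn : V.Normal := hN.map _ (QuotientGroup.mk'_surjective F)
  have hcomap : V.comap (QuotientGroup.mk' F) = N := by
    rw [hV, Subgroup.comap_map_eq, QuotientGroup.ker_mk']
    exact sup_eq_left.2 hFN
  have hVidx : V.index = N.index := by
    rw [← hcomap, Subgroup.index_comap_of_surjective _ (QuotientGroup.mk'_surjective F)]
  have hcard : Nat.card N = Nat.card F * Nat.card V := by
    have h1 := Subgroup.card_mul_index N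
    have h2 := Subgroup.card_mul_index V
    have h3 := Subgroup.card_eq_card_quotient_mul_card_subgroup F
    rw [hVidx] at h2
    have h4 : Nat.card N * N.index = Nat.card F * Nat.card V * N.index := by
      rw [h1, h3, ← h2]; ring
    exact Nat.eq_of_mul_eq_mul_right (Nat.pos_of_ne_zero Subgroup.index_ne_zero_of_finite) h4
  have hmemF : ∀ x : N, x ∈ frattini N → (x : M) ∈ F := fun x hx => ⟨x, hx, rfl⟩
  have hkV : Nat.card (ConjClasses (M ⧸ F)) ≤ Nat.card V := by
    refine hk p (M ⧸ F) V ?_ (by rw [hVidx]; exact hidx) ?_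
    · rintro _ ⟨x, hx, rfl⟩
      have h1 := Lib.FrattiniPGroup.pow_mem_frattini hNp (⟨x, hx⟩ : N)
      have h2 := hmemF _ h1
      rw [← map_pow]
      exact (QuotientGroup.eq_one_iff _).2 h2
    · apply le_antisymm
      · intro z hz
        induction z using QuotientGroup.induction_on with | H g =>
        refine ⟨g, ?_, rfl⟩
        refine mem_of_trivial_frattini N hNp hidx hc g ?_
        intro x
        rw [Subgroup.mem_centralizer_iff] at hz
        have h1 := hz (QuotientGroup.mk' F (x : M)) ⟨x, x.2, rfl⟩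
        have h2 : QuotientGroup.mk' F (g * (x : M) * g⁻¹ * (x : M)⁻¹) = 1 := by
          rw [map_mul, map_mul, map_mul, map_inv, map_inv]
          have h3 : QuotientGroup.mk' F (x : M) * QuotientGroup.mk' F g =
            QuotientGroup.mk' F g * QuotientGroup.mk' F (x : M) := h1
          rw [← h3]; group
        have h3 : g * (x : M) * g⁻¹ * (x : M)⁻¹ ∈ F := (QuotientGroup.eq_one_iff _).1 h2
        obtain ⟨y, hy, hyx⟩ := h3
        have h4 : MulAut.conjNormal g x * x⁻¹ = y := by
          apply Subtype.ext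
          rw [Subgroup.coe_mul, MulAut.conjNormal_apply, Subgroup.coe_inv]
          exact hyx.symm
        rw [h4]
        exact hy
      · rintro _ ⟨x, hx, rfl⟩
        rw [Subgroup.mem_centralizer_iff]
        rintro _ ⟨y, hy, rfl⟩
        have h1 := hmemF _ (Lib.FrattiniPGroup.commutator_mem_frattini hNp (⟨y, hy⟩ : N) ⟨x, hx⟩)
        have h2 : QuotientGroup.mk' F ⁅y, x⁆ = 1 := (QuotientGroup.eq_one_iff _).2 h1
        rw [map_commutatorElement, commutatorElement_eq_one_iff_mul_comm] at h2
        exact h2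
  have hle := le_normal_mul_quotient F
  have hkF : Nat.card (ConjClasses F) ≤ Nat.card F := card_conjClasses_le_card
  refine ⟨?_, ?_⟩
  · calc Nat.card (ConjClasses M) ≤ Nat.card (ConjClasses F) * Nat.card (ConjClasses (M ⧸ F)) := hle
      _ ≤ Nat.card F * Nat.card V := Nat.mul_le_mul hkF hkV
      _ = Nat.card N := hcard.symm
  · intro heq
    have h1 : Nat.card (ConjClasses F) * Nat.card (ConjClasses (M ⧸ F)) ≤ Nat.card F * Nat.card V :=
      Nat.mul_le_mul hkF hkV
    have h2 : Nat.card (ConjClasses M) = Nat.card (ConjClasses F) * Nat.card (ConjClasses (M ⧸ F)) :=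
      le_antisymm hle (by rw [heq, hcard]; exact h1)
    have h3 : Nat.card (ConjClasses F) = Nat.card F := by
      refine le_antisymm hkF ?_
      have h4 : Nat.card F * Nat.card V ≤ Nat.card (ConjClasses F) * Nat.card V := by
        rw [← hcard, ← heq, h2]
        exact Nat.mul_le_mul_left _ hkV
      exact Nat.le_of_mul_le_mul_right h4 Nat.card_pos
    obtain ⟨e1, e2⟩ := eq_case F h2
    have hFcomm := comm_of_card_eq h3
    have hcent : ∀ n ∈ F, ∀ g : M, Commute n g := by
      intro n hn g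
      obtain ⟨c, hc, hcomm⟩ := e1 n hn g
      have h5 : Commute n c := congrArg Subtype.val (hFcomm ⟨n, hn⟩ ⟨c, hc⟩)
      have h6 := hcomm.mul_right h5.inv_right
      rwa [mul_inv_cancel_right] at h6
    intro a ha b hb
    have h5 : Commute (QuotientGroup.mk a : M ⧸ F) (QuotientGroup.mk b) := by
      have h1 := hmemF _ (Lib.FrattiniPGroup.commutator_mem_frattini hNp (⟨a, ha⟩ : N) ⟨b, hb⟩)
      have h2 : QuotientGroup.mk' F ⁅a, b⁆ = 1 := (QuotientGroup.eq_one_iff _).2 h1
      rw [map_commutatorElement, commutatorElement_eq_one_iff_mul_comm] at h2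
      exact h2
    obtain ⟨c, hc, hcomm⟩ := e2 a b h5
    have h6 := hcomm.mul_right (hcent c hc a).symm.inv_right
    rw [mul_inv_cancel_right] at h6
    exact h6

end stepA

section main

theorem relIndex_eq_card_map {X : Type*} [Group X] (M L : Subgroup X) [M.Normal] :
    M.relIndex L = Nat.card (L.map (QuotientGroup.mk' M)) := by
  have := Subgroup.relIndex_ker (K := L) (QuotientGroup.mk' M)
  rw [QuotientGroup.ker_mk'] at this
  rw [this]

theorem card_eq_inf_mul {X : Type*} [Group X] (M P : Subgroup X) :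
    Nat.card P = Nat.card ↥(M ⊓ P) * M.relIndex P := by
  rw [← Subgroup.inf_relIndex_right M, ← Subgroup.relIndex_bot_left,
    ← Subgroup.relIndex_bot_left, Subgroup.relIndex_mul_relIndex _ _ _ bot_le inf_le_right]

/-- `k(X) ≤ |P|` for `p`-solvable `X` with `O_{p'}(X) = 1`, and strict inequality for nonabelian `P`. -/
theorem main_aux (hk : KGVLe.{u}) {p : ℕ} [hp : Fact p.Prime] (n : ℕ) :
    ∀ (X : Type u) [Group X] [Finite X], Nat.card X ≤ n → Cfsg.IsPSolvable p X →
      Cfsg.pPrimeCore p X = ⊥ → ∀ P : Sylow p X, Nat.card (ConjClasses X) ≤ Nat.card P ∧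
        ((∃ a ∈ P, ∃ b ∈ P, a * b ≠ b * a) → Nat.card (ConjClasses X) < Nat.card P) := by
  induction n with
  | zero =>
    intro X _ _ hn
    exact absurd hn (by have := Nat.card_pos (α := X); omega)
  | succ n ih =>
    intro X _ _ hn hsolv hcore P
    rcases subsingleton_or_nontrivial X with hs | hnt
    · refine ⟨?_, ?_⟩
      · have h1 : Nat.card (ConjClasses X) ≤ Nat.card X := card_conjClasses_le_card
        have h2 : Nat.card X = 1 := Nat.card_eq_one_iff_unique.2 ⟨hs, ⟨1⟩⟩
        have h3 : 0 < Nat.card P := Nat.card_pos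
        omega
      · rintro ⟨a, -, b, -, hab⟩
        exact absurd (Subsingleton.elim _ _) hab
    -- the cores
    have hN : (Cfsg.pCore p X).Normal := Lib.Cores.pCore_normal p
    set N : Subgroup X := Cfsg.pCore p X with hNdef
    have hNp : IsPGroup p N := Lib.Cores.pCore_isPGroup p
    have hNne : N ≠ ⊥ := by
      rcases Lib.PSolvable.exists_core_ne_bot p hsolv with h | h
      · exact h
      · exact absurd hcore h
    have hKn : (Cfsg.pPrimeCore p (X ⧸ N)).Normal := Lib.Cores.pPrimeCore_normal p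
    set K : Subgroup (X ⧸ N) := Cfsg.pPrimeCore p (X ⧸ N) with hKdef
    have hKcop : (Nat.card K).Coprime p := Lib.Cores.pPrimeCore_coprime p
    set M : Subgroup X := K.comap (QuotientGroup.mk' N) with hMdef
    have hMn : M.Normal := hKn.comap _
    have hNM : N ≤ M := by
      have := (QuotientGroup.mk' N).ker_le_comap K
      rwa [QuotientGroup.ker_mk'] at this
    have hMmap : M.map (QuotientGroup.mk' N) = K :=
      Subgroup.map_comap_eq_self_of_surjective (QuotientGroup.mk'_surjective N) K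
    have hrel : N.relIndex M = Nat.card K := by rw [relIndex_eq_card_map, hMmap]
    -- `M`
    have hN'n : (N.subgroupOf M).Normal := inferInstance
    have hcardN' : Nat.card (N.subgroupOf M) = Nat.card N :=
      Nat.card_congr (Subgroup.subgroupOfEquivOfLe hNM).toEquiv
    have hN'p : IsPGroup p (N.subgroupOf M) :=
      hNp.of_equiv (Subgroup.subgroupOfEquivOfLe hNM).symm
    have hidx : ¬ p ∣ (N.subgroupOf M).index := by
      show ¬ p ∣ N.relIndex M
      rw [hrel]
      exact (Nat.Prime.coprime_iff_not_dvd hp.out).1 hKcop.symm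
    have hHH := Lib.PSolvable.centralizer_pCore_le_of_pSolvable p hsolv hcore
    have hc : Subgroup.centralizer ((N.subgroupOf M : Subgroup M) : Set M) ≤ N.subgroupOf M := by
      intro g hg
      rw [Subgroup.mem_subgroupOf]
      apply hHH
      rw [Subgroup.mem_centralizer_iff] at hg ⊢
      intro x hx
      exact congrArg Subtype.val (hg ⟨x, hNM hx⟩ hx)
    obtain ⟨hA1, hA2⟩ := stepA hk (N.subgroupOf M) hN'p hidx hc
    rw [hcardN'] at hA1 hA2
    -- `M ⊓ P = N`
    have hMP : M ⊓ (P : Subgroup X) = N := by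
      apply le_antisymm
      · rintro x ⟨hxM, hxP⟩
        obtain ⟨k, hk'⟩ := P.isPGroup' ⟨x, hxP⟩
        have h1 : x ^ (p ^ k) = 1 := congrArg Subtype.val hk'
        have h2 : (⟨x, hxM⟩ : M) ∈ N.subgroupOf M := by
          refine mem_of_pow_mem (N.subgroupOf M) hidx (k := k) ?_
          rw [Subgroup.mem_subgroupOf]
          show x ^ (p ^ k) ∈ N
          rw [h1]
          exact N.one_mem
        exact h2
      · exact le_inf hNM (Lib.Cores.pCore_le_sylow P)
    -- `X / M`
    have hsolv' : Cfsg.IsPSolvable p (X ⧸ M) := PLocal.PSolvable.isPSolvable_quotient hsolv M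
    have hcore' : Cfsg.pPrimeCore p (X ⧸ M) = ⊥ := by
      set L : Subgroup X := (Cfsg.pPrimeCore p (X ⧸ M)).comap (QuotientGroup.mk' M) with hL
      have hLn : L.Normal := (Lib.Cores.pPrimeCore_normal p).comap _
      have hML : M ≤ L := by
        have := (QuotientGroup.mk' M).ker_le_comap (Cfsg.pPrimeCore p (X ⧸ M))
        rwa [QuotientGroup.ker_mk'] at this
      have hLmap : L.map (QuotientGroup.mk' M) = Cfsg.pPrimeCore p (X ⧸ M) :=
        Subgroup.map_comap_eq_self_of_surjective (QuotientGroup.mk'_surjective M) _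
      have h1 : (L.map (QuotientGroup.mk' N)) ≤ K := by
        refine Lib.Cores.le_pPrimeCore (hLn.map _ (QuotientGroup.mk'_surjective N)) ?_
        rw [← relIndex_eq_card_map, ← Subgroup.relIndex_mul_relIndex N M L hNM hML, hrel,
          relIndex_eq_card_map M L, hLmap]
        exact Nat.Coprime.mul_left hKcop (Lib.Cores.pPrimeCore_coprime p)
      have h2 : L ≤ M := Subgroup.map_le_iff_le_comap.1 h1
      rw [← hLmap, le_antisymm h2 hML, eq_bot_iff]
      rintro _ ⟨x, hx, rfl⟩
      exact Subgroup.mem_bot.2 ((QuotientGroup.eq_one_iff _).2 hx)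
    have hlt : Nat.card (X ⧸ M) ≤ n := by
      have h1 := Subgroup.card_eq_card_quotient_mul_card_subgroup M
      have h2 : 1 < Nat.card M := by
        have h3 : 1 < Nat.card N := (Subgroup.one_lt_card_iff_ne_bot N).2 hNne
        exact lt_of_lt_of_le h3 (Subgroup.card_le_of_le hNM)
      have h3 : 0 < Nat.card (X ⧸ M) := Nat.card_pos
      have h4 : Nat.card (X ⧸ M) < Nat.card X := by rw [h1]; exact lt_mul_of_one_lt_right h3 h2
      omega
    obtain ⟨hB1, -⟩ := ih (X ⧸ M) hlt hsolv' hcore' (P.mapSurjective (QuotientGroup.mk'_surjective M))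
    have hcardP : Nat.card P = Nat.card N *
        Nat.card (P.mapSurjective (QuotientGroup.mk'_surjective M)) := by
      have h1 := card_eq_inf_mul M (P : Subgroup X)
      rw [hMP, relIndex_eq_card_map] at h1
      exact h1
    have hle := le_normal_mul_quotient M
    have hle2 : Nat.card (ConjClasses M) * Nat.card (ConjClasses (X ⧸ M)) ≤ Nat.card P := by
      rw [hcardP]; exact Nat.mul_le_mul hA1 hB1
    refine ⟨hle.trans hle2, ?_⟩
    rintro ⟨a, ha, b, hb, hab⟩
    refine lt_of_le_of_ne (hle.trans hle2) fun heq => ?_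
    have e1 : Nat.card (ConjClasses X) = Nat.card (ConjClasses M) * Nat.card (ConjClasses (X ⧸ M)) :=
      le_antisymm hle (by rw [heq]; exact hle2)
    have e2 : Nat.card (ConjClasses M) = Nat.card N := by
      refine le_antisymm hA1 ?_
      have h1 : Nat.card N * Nat.card (ConjClasses (X ⧸ M)) ≤
          Nat.card (ConjClasses M) * Nat.card (ConjClasses (X ⧸ M)) := by
        rw [← e1, heq, hcardP]
        exact Nat.mul_le_mul_left _ hB1
      exact Nat.le_of_mul_le_mul_right h1 card_conjClasses_pos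
    have hNcomm := hA2 e2
    obtain ⟨f1, -⟩ := eq_case M e1
    -- `P ≤ N`
    have hKle : K ≤ Subgroup.centralizer
        (((P : Subgroup X).map (QuotientGroup.mk' N) : Subgroup (X ⧸ N)) : Set (X ⧸ N)) := by
      refine centralize_of_fix (p := p) K ((Nat.Prime.coprime_iff_not_dvd hp.out).1 hKcop.symm) _
        (P.isPGroup'.map _) ?_
      rintro _ ⟨g, hg, rfl⟩ m hm
      obtain ⟨m0, rfl⟩ := QuotientGroup.mk'_surjective N m
      obtain ⟨c, hc, hcomm⟩ := f1 m0 hm g⁻¹
      refine ⟨QuotientGroup.mk' N c, hc, ?_⟩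
      rw [← map_inv, ← map_mul, ← map_mul, ← map_inv, ← map_mul, ← map_mul]
      congr 1
      have h1 : m0 * (g⁻¹ * c) = g⁻¹ * c * m0 := hcomm.eq
      calc g * m0 * g⁻¹ = g * (m0 * (g⁻¹ * c)) * c⁻¹ := by group
        _ = c * m0 * c⁻¹ := by rw [h1]; group
    have hHH' := PLocal.HallHigmanPrime.centralizer_pPrimeCore_le_of_pSolvable p
      (PLocal.PSolvable.isPSolvable_quotient hsolv N) (Lib.Cores.pCore_quotient_pCore p)
    have hPN : ∀ g ∈ (P : Subgroup X), g ∈ N := by
      intro g hg
      have h1 : QuotientGroup.mk' N g ∈ K := by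
        apply hHH'
        rw [Subgroup.mem_centralizer_iff]
        intro y hy
        have h2 := hKle hy
        rw [Subgroup.mem_centralizer_iff] at h2
        exact (h2 _ ⟨g, hg, rfl⟩).symm
      have h2 : g ∈ M ⊓ (P : Subgroup X) := ⟨h1, hg⟩
      rwa [hMP] at h2
    exact hab (hNcomm ⟨a, hNM (hPN a ha)⟩ (hPN a ha) ⟨b, hNM (hPN b hb)⟩ (hPN b hb) |> congrArg Subtype.val)

/-- `S4961` from the `k(GV)` theorem. -/
theorem main (hk : KGVLe.{u}) {X : Type u} [Group X] [Finite X] (p : ℕ) [Fact p.Prime]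
    (hsolv : Cfsg.IsPSolvable p X) (hcore : Cfsg.pPrimeCore p X = ⊥) (P : Sylow p X) :
    Nat.card (ConjClasses X) ≤ Nat.card P ∧
      ((∃ a ∈ P, ∃ b ∈ P, a * b ≠ b * a) → Nat.card (ConjClasses X) < Nat.card P) :=
  main_aux hk _ X le_rfl hsolv hcore P

end main

end Cfsg.Agent.H718.KGVApp
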